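import Mathlib
import Cfsg.Agent.H640.Inv3
import Cfsg.Agent.H621.BrauerGlauberman
import Cfsg.Agent.H621.PSolvAb
import Cfsg.Agent.S4492

/-!
# The theorem when the character of `O_{p'}(G)` is invariant (helper640)
-/

set_option autoImplicit false
set_option linter.unusedSectionVars false

namespace Cfsg.Agent.H640

open Cfsg
open Cfsg.Agent.Characters.Core

theorem ndvd_pPrimeCore {G : Type*} [Group G] [Finite G] (p : ℕ) [hp : Fact p.Prime] :
    ¬ p ∣ Nat.card (pPrimeCore p G) := by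
  intro h
  have h1 := Cfsg.Agent.Lib.Cores.pPrimeCore_coprime (G := G) p
  have h2 := Nat.dvd_gcd h dvd_rfl
  rw [Nat.Coprime] at h1
  rw [h1] at h2
  exact hp.out.one_lt.ne' (Nat.dvd_one.1 h2)

/-- **The invariant case of S4643.** -/
theorem case_inv {G : Type*} [Group G] [Fintype G] (p : ℕ) [Fact p.Prime] (M : Ideal AlgInt)
    (hM : IsPModular p M) (hsolv : IsPSolvable p G) (B : Set (IrrCharacter G))
    (hB : IsPBlock M B) (P : Subgroup G) (hPD : IsDefectGroup p M B P)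
    (hPab : ∀ x ∈ P, ∀ y ∈ P, x * y = y * x) (H : Subgroup G)
    (hH : H = Subgroup.normalizer (P : Set G)) (c : Set (IrrCharacter H))
    (hc : IsInducedBlock M H c B) (N : Subgroup G) (hNdef : N = pPrimeCore p G) [hN : N.Normal]
    [Fintype N] (θ : IrrCharacter N) (χ : IrrCharacter G) (hχ : χ ∈ B)
    (hχθ : classInner (fun x : N => (χ : G → ℂ) x) (θ : N → ℂ) ≠ 0)
    (hinv : ∀ (g : G) (n : N), (θ : N → ℂ) ⟨g * n * g⁻¹, hN.conj_mem n n.2 g⟩ = (θ : N → ℂ) n) :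
    ∃ (I : IrrCharacter H → IrrCharacter G) (ε : IrrCharacter H → ℤ),
      IsPerfectIsometry p M c B I ε := by
  classical
  have hprime := Cfsg.Agent.Blocks.Local.isPrime_of_isPModular hM
  have : Fintype H := Fintype.ofFinite _
  have : Fintype (N.subgroupOf H) := Fintype.ofFinite _
  have hpN : ¬ p ∣ Nat.card N := by
    rw [hNdef]
    exact ndvd_pPrimeCore p
  -- `B` consists of the characters over `θ`
  obtain ⟨B₁, hB₁, hB₁mem, -, hB₁D⟩ := Cfsg.Agent.S4492.result p M hM hsolv N hNdef θ hinv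
  have hBB : B = B₁ := by
    have h1 : χ ∈ B₁ := (hB₁mem χ).2 hχθ
    rw [Cfsg.Agent.Blocks.Basic.isPBlock_eq_blockOf hB hχ,
      Cfsg.Agent.Blocks.Basic.isPBlock_eq_blockOf hB₁ h1]
  obtain ⟨PS, hPS⟩ := hB₁D P (hBB ▸ hPD)
  have hP : IsPGroup p P := by rw [hPS]; exact PS.isPGroup'
  obtain ⟨-, hNH, hcore⟩ := Cfsg.Agent.H621.PSolvAb.taskF p hsolv PS
    (fun x hx y hy => hPab x (hPS ▸ hx) y (hPS ▸ hy))
  rw [← hNdef, ← hPS, ← hH] at hNH
  have hcoreH : N.subgroupOf H = pPrimeCore p H := by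
    subst hH
    subst hNdef
    rw [hPS]
    exact hcore.symm
  obtain ⟨φ, e, he, hpe, hφinv, I, ε, hI⟩ := thmI p M hM N hpN P hP H hH hNH θ hinv
  -- `c` consists of the characters over `φ`
  have hsolvH : IsPSolvable p H :=
    Cfsg.Agent.Lib.PSolvable.IsPSolvable_of_injective p hsolv H.subtype H.subtype_injective
  have hnH : (N.subgroupOf H).Normal := hN.subgroupOf H
  obtain ⟨c₁, hc₁, hc₁mem, -, -⟩ := Cfsg.Agent.S4492.result p M hM hsolvH (N.subgroupOf H) hcoreH φ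
    hφinv
  have hover := Cfsg.Agent.H621.BrauerGlauberman.taskC p M hM N hpN P hP H hH θ hinv φ e he hpe B c
    hc χ hχ hχθ
  have hcc : c = c₁ := by
    obtain ⟨η, hη⟩ := Cfsg.Agent.Blocks.Basic.isPBlock_nonempty hc.1
    have h1 : η ∈ c₁ := (hc₁mem η).2 (hover η hη)
    rw [Cfsg.Agent.Blocks.Basic.isPBlock_eq_blockOf hc.1 hη,
      Cfsg.Agent.Blocks.Basic.isPBlock_eq_blockOf hc₁ h1]
  have e1 : c = {ψ : IrrCharacter H | classInner (fun x : N.subgroupOf H => (ψ : H → ℂ) x)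
        (φ : N.subgroupOf H → ℂ) ≠ 0} := by
    rw [hcc]
    ext ψ
    exact hc₁mem ψ
  have e2 : B = {χ : IrrCharacter G | classInner (fun x : N => (χ : G → ℂ) x)
      (θ : N → ℂ) ≠ 0} := by
    rw [hBB]
    ext ψ
    exact hB₁mem ψ
  rw [e1, e2]
  exact ⟨I, ε, hI⟩

end Cfsg.Agent.H640
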