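import Mathlib
import Cfsg.Prelude.Def_BlockLocal
import Cfsg.Agent.H592.Transport
import Cfsg.Agent.H592.Transit

/-!
# Transport of induced blocks and perfect isometries along isomorphisms (helper640)
-/

set_option autoImplicit false
set_option linter.unusedSectionVars false

namespace Cfsg.Agent.H640

open Cfsg
open Cfsg.Agent.Characters.Core
open Cfsg.Agent.H592.Transport

theorem indCC_tr {G : Type*} [Group G] {H H' : Subgroup G} (e : H' ≃* H)
    (he : ∀ y : H', IsConj (y : G) (e y : G)) (ξ : IrrCharacter H) (g : G) :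
    inducedCentralChar H' (tr e ξ : H' → ℂ) g = inducedCentralChar H (ξ : H → ℂ) g := by
  rw [inducedCentralChar, inducedCentralChar]
  refine finsum_mem_eq_of_bijOn e ⟨fun y hy => ?_, e.injective.injOn, fun y hy => ?_⟩ fun y _ => ?_
  · exact IsConj.trans (show IsConj g (y : G) from hy) (he y)
  · refine ⟨e.symm y, ?_, e.apply_symm_apply y⟩
    have h1 := he (e.symm y)
    rw [e.apply_symm_apply] at h1
    exact IsConj.trans (show IsConj g (y : G) from hy) h1.symm
  · rw [tr_apply, tr_apply, map_one]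

theorem isInduced_tr {G : Type*} [Group G] {M : Ideal AlgInt} [M.IsPrime] {H H' : Subgroup G}
    (e : H' ≃* H) (he : ∀ y : H', IsConj (y : G) (e y : G)) {c : Set (IrrCharacter H)}
    {B : Set (IrrCharacter G)} (h : IsInducedBlock M H c B) :
    IsInducedBlock M H' (trSet e c) B := by
  refine ⟨isPBlock_trSet e h.1, h.2.1, fun ξ hξ χ hχ g => ?_⟩
  have h1 : ξ = tr e (tr e.symm ξ) := (tr_tr_symm e ξ).symm
  rw [h1, indCC_tr e he]
  exact h.2.2 _ hξ χ hχ g

theorem card_centralizer_equiv {A B : Type*} [Group A] [Group B] (e : A ≃* B) (y : A) :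
    Nat.card (Subgroup.centralizer ({y} : Set A)) =
      Nat.card (Subgroup.centralizer ({e y} : Set B)) := by
  refine Nat.card_congr (e.toEquiv.subtypeEquiv fun a => ?_)
  rw [Subgroup.mem_centralizer_singleton_iff, Subgroup.mem_centralizer_singleton_iff]
  show a * y = y * a ↔ e a * e y = e y * e a
  rw [← map_mul, ← map_mul]
  exact e.injective.eq_iff.symm

theorem isPRegular_equiv {A B : Type*} [Group A] [Group B] (p : ℕ) (e : A ≃* B) (y : A) :
    IsPRegular p y ↔ IsPRegular p (e y) := by
  rw [IsPRegular, IsPRegular, MulEquiv.orderOf_eq]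

theorem perf_tr {G A B : Type*} [Group G] [Group A] [Group B] {p : ℕ} {M : Ideal AlgInt}
    (e : A ≃* B) {c : Set (IrrCharacter B)} {b : Set (IrrCharacter G)}
    {I : IrrCharacter B → IrrCharacter G} {ε : IrrCharacter B → ℤ}
    (h : IsPerfectIsometry p M c b I ε) :
    IsPerfectIsometry p M (trSet e c) b (fun η => I (tr e.symm η)) (fun η => ε (tr e.symm η)) := by
  obtain ⟨h1, h2, h3⟩ := h
  refine ⟨⟨fun η hη => h1.mapsTo hη, fun η hη η' hη' heq => ?_, fun χ hχ => ?_⟩,
    fun η hη => h2 _ hη, ?_⟩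
  · have h4 := h1.injOn hη hη' heq
    rw [← tr_tr_symm e η, h4, tr_tr_symm]
  · obtain ⟨η, hη, rfl⟩ := h1.surjOn hχ
    exact ⟨tr e η, tr_mem_trSet.2 hη, by simp only [tr_symm_tr]⟩
  · have hker : ∀ x y, signedBijectionKernel (trSet e c) (fun η => I (tr e.symm η))
        (fun η => ε (tr e.symm η)) x y = signedBijectionKernel c I ε x (e y) := by
      intro x y
      rw [signedBijectionKernel, signedBijectionKernel, finsum_trSet]
      refine finsum_mem_congr rfl fun η _ => ?_
      rw [tr_symm_tr, tr_apply]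
    intro x y
    obtain ⟨h4, h5, h6⟩ := h3 x (e y)
    rw [hker, card_centralizer_equiv e y, isPRegular_equiv p e y]
    exact ⟨h4, h5, h6⟩

end Cfsg.Agent.H640
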