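import Mathlib
import Cfsg.Agent.H640.Final1
import Cfsg.Agent.H640.Final2
import Cfsg.Agent.S4435
import Cfsg.Agent.S4436
import Cfsg.Agent.S0920
import Cfsg.Agent.H646.OverPrime
import Cfsg.Agent.H648.FirstMain

/-!
# Fong–Reynolds reduction (helper640)
-/

set_option autoImplicit false
set_option linter.unusedSectionVars false

namespace Cfsg.Agent.H640

open Cfsg
open Cfsg.Agent.Characters.Core
open Cfsg.Agent.H591.Reynolds
open Cfsg.Agent.OddOrderCharacters.NormalInduced (conjFn conjFn_apply)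
open Cfsg.Agent.OddOrderCharacters.PF9.CliffGen (resTo resTo_apply)

universe u

/-- the stabilizer condition for a single character -/
theorem isStab_singleton {G : Type u} [Group G] {N T : Subgroup G} [hN : N.Normal]
    (θ : IrrCharacter N) (hT : ∀ g, g ∈ T ↔ conjFn N (θ : N → ℂ) g = θ) :
    IsStab ({θ} : Set (IrrCharacter N)) T := by
  intro g
  rw [hT]
  constructor
  · rintro h _ rfl θ' h'
    apply Subtype.ext
    funext n
    rw [h' n]
    exact congrFun h n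
  · intro h
    have h1 := h θ rfl (Cfsg.Agent.Blocks.Covering.conjIrr N g θ) (fun n => by
      rw [← conjFn_eq_conjIrr]
      rfl)
    rw [conjFn_eq_conjIrr]
    exact congrArg Subtype.val h1

/-- The Fong–Reynolds bijection. -/
theorem fr {G : Type u} [Group G] [Fintype G] (p : ℕ) [Fact p.Prime] {M : Ideal AlgInt}
    (hM : IsPModular p M) {N T : Subgroup G} [hN : N.Normal] [Fintype N] [Fintype T]
    (hpN : ¬ p ∣ Nat.card N) (θ : IrrCharacter N)
    (hT : ∀ g, g ∈ T ↔ conjFn N (θ : N → ℂ) g = θ) (hNT : N ≤ T)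
    {B' : Set (IrrCharacter T)} (hB' : IsPBlock M B') {ψ₀ : IrrCharacter T} (hψ₀ : ψ₀ ∈ B')
    (h₀ : classInner (resTo hNT (ψ₀ : T → ℂ)) (θ : N → ℂ) ≠ 0) :
    ∃ B : Set (IrrCharacter G), IsInducedBlock M T B' B ∧
      (∀ D : Subgroup T, IsDefectGroup p M B' D → IsDefectGroup p M B (D.map T.subtype)) ∧
      ∃ F : IrrCharacter T → IrrCharacter G, Set.BijOn F B' B ∧
        ∀ ψ ∈ B', (F ψ : G → ℂ) = indFun T (ψ : T → ℂ) := by
  classical
  have hst := isStab_singleton θ hT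
  have hb : IsPBlock M ({θ} : Set (IrrCharacter N)) :=
    Cfsg.Agent.H646.OverPrime.isPBlock_singleton hM hpN θ
  obtain ⟨B, hind, -, hirr, hmem⟩ := (Cfsg.Agent.S4435.result p M hM N {θ} hb T hst hNT).1 B' hB'
    ⟨ψ₀, hψ₀, θ, rfl, h₀⟩
  refine ⟨B, hind, (Cfsg.Agent.S4436.result p M hM N {θ} hb T hst hNT B' hB'
    ⟨ψ₀, hψ₀, θ, rfl, h₀⟩ B hind).1, ?_⟩
  have hover : ∀ ψ ∈ B', classInner (resTo hNT (ψ : T → ℂ)) (θ : N → ℂ) ≠ 0 := by
    intro ψ hψ
    obtain ⟨θ', hθ'⟩ := exists_over hNT ψ.2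
    have h1 : θ' = θ := Cfsg.Agent.H591.ReynoldsMain.over_of_mem p hM hb hst hNT hB' hψ₀ rfl h₀ hψ hθ'
    rwa [h1] at hθ'
  let F : IrrCharacter T → IrrCharacter G := fun ψ =>
    if h : ψ ∈ B' then ⟨_, hirr ψ h⟩ else ⟨_, isIrr_one⟩
  have hF : ∀ ψ ∈ B', (F ψ : G → ℂ) = indFun T (ψ : T → ℂ) := by
    intro ψ hψ
    show ((if h : ψ ∈ B' then (⟨_, hirr ψ h⟩ : IrrCharacter G) else ⟨_, isIrr_one⟩ :
      IrrCharacter G) : G → ℂ) = _
    rw [dif_pos hψ]
  refine ⟨F, ⟨fun ψ hψ => (hmem _).2 ⟨ψ, hψ, hF ψ hψ⟩, fun ψ hψ ψ' hψ' h => ?_,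
    fun χ hχ => ?_⟩, hF⟩
  · have h1 : indFun T (ψ : T → ℂ) = indFun T (ψ' : T → ℂ) := by
      rw [← hF ψ hψ, ← hF ψ' hψ', h]
    exact Subtype.ext (Cfsg.Agent.H591.Cliff.ind_inj θ.2 (fun g hg => (hT g).2 hg) hNT ψ.2 ψ'.2
      (hover ψ hψ) (hover ψ' hψ') h1)
  · obtain ⟨ψ, hψ, h⟩ := (hmem χ).1 hχ
    exact ⟨ψ, hψ, Subtype.ext (by rw [hF ψ hψ, h])⟩

/-- The covering block over an inertia group. -/
theorem exists_fr {G : Type u} [Group G] [Fintype G] (p : ℕ) [Fact p.Prime] {M : Ideal AlgInt}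
    (hM : IsPModular p M) {N T : Subgroup G} [hN : N.Normal] [Fintype N] [Fintype T]
    (hpN : ¬ p ∣ Nat.card N) (θ : IrrCharacter N)
    (hT : ∀ g, g ∈ T ↔ conjFn N (θ : N → ℂ) g = θ) (hNT : N ≤ T)
    {B : Set (IrrCharacter G)} (hB : IsPBlock M B) {χ : IrrCharacter G} (hχ : χ ∈ B)
    (h : classInner (fun n : N => (χ : G → ℂ) n) (θ : N → ℂ) ≠ 0) :
    ∃ B' : Set (IrrCharacter T), IsPBlock M B' ∧ IsInducedBlock M T B' B ∧
      ∃ ψ₀ ∈ B', classInner (resTo hNT (ψ₀ : T → ℂ)) (θ : N → ℂ) ≠ 0 := by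
  have hst := isStab_singleton θ hT
  have hb : IsPBlock M ({θ} : Set (IrrCharacter N)) :=
    Cfsg.Agent.H646.OverPrime.isPBlock_singleton hM hpN θ
  obtain ⟨B', hB', ⟨ψ, hψ, θ', hθ', h'⟩, hind⟩ :=
    (Cfsg.Agent.S4435.result p M hM N {θ} hb T hst hNT).2.2 B hB ⟨χ, hχ, θ, rfl, h⟩
  rw [Set.mem_singleton_iff] at hθ'
  subst hθ'
  exact ⟨B', hB', hind, ψ, hψ, h'⟩

/-- First main theorem with a named normalizer. -/
theorem first_main {G : Type u} [Group G] [Finite G] (p : ℕ) [Fact p.Prime] (M : Ideal AlgInt)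
    (hM : IsPModular p M) (D : Subgroup G) (hD : IsPGroup p D) (H : Subgroup G)
    (hH : H = Subgroup.normalizer (D : Set G)) (B : Set (IrrCharacter G)) (hB : IsPBlock M B)
    (hBD : IsDefectGroup p M B D) :
    ∃! b : Set (IrrCharacter H), IsPBlock M b ∧ IsDefectGroup p M b (D.subgroupOf H) ∧
      IsInducedBlock M H b B := by
  subst hH
  exact (Cfsg.Agent.S0920.result p M hM D hD).2 B hB hBD

/-- The Glauberman correspondents of conjugate characters. -/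
theorem stab_glauberman {G : Type u} [Group G] [Fintype G] {p : ℕ} [Fact p.Prime]
    {M : Ideal AlgInt} (hM : IsPModular p M)
    {N : Subgroup G} [hN : N.Normal] [Fintype N] (hpN : ¬ p ∣ Nat.card N) (P : Subgroup G)
    (hP : IsPGroup p P) (H : Subgroup G) (hH : H = Subgroup.normalizer (P : Set G))
    [Fintype (N.subgroupOf H)] [hnH : (N.subgroupOf H).Normal] (θ : IrrCharacter N)
    (hθP : ∀ g ∈ P, conjFn N (θ : N → ℂ) g = θ) :
    ∃ (φ : IrrCharacter (N.subgroupOf H)) (e : ℕ),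
      classInner (fun x : N.subgroupOf H => (θ : N → ℂ) ⟨((x : H) : G), x.2⟩)
        (φ : N.subgroupOf H → ℂ) = e ∧ ¬ p ∣ e ∧
      ∀ h : H, conjFn N (θ : N → ℂ) h = θ ↔
        conjFn (N.subgroupOf H) (φ : N.subgroupOf H → ℂ) h = φ := by
  classical
  open Cfsg.Agent.H593.GlaubermanP Cfsg.Agent.H621.BrauerGlauberman in
  let _ := act N P
  have hset : Setup P (iota N H) p := setup N hpN P hP H hH
  have hact : ∀ (s : P) (g : N), ((s • g : N) : G) = (s : G) * g * (s : G)⁻¹ := fun _ _ => rfl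
  have hInv : ∀ ξ : IrrCharacter N, (∀ g ∈ P, conjFn N (ξ : N → ℂ) g = ξ) →
      Inv P (ξ : N → ℂ) := by
    intro ξ hξ s g
    exact congrFun (hξ s s.2) g
  obtain ⟨φ, hφ⟩ := exists_beta hset hM θ
  obtain ⟨e, he⟩ := exists_mult (ι := iota N H) θ φ
  have hpe : ¬ p ∣ e := fun h => hφ ((good_iff hset hM he).2 h)
  refine ⟨φ, e, he, hpe, fun h => ?_⟩
  -- the conjugate
  have hnorm : ∀ h : H, ∀ g ∈ P, (h : G) * g * (h : G)⁻¹ ∈ P := by
    intro h g hg
    have h1 : (h : G) ∈ Subgroup.normalizer (P : Set G) := hH ▸ h.2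
    exact (Subgroup.mem_normalizer_iff.1 h1 g).1 hg
  let θh : IrrCharacter N := Cfsg.Agent.Blocks.Covering.conjIrr N (h : G) θ
  have hθh : ∀ n : N, (θh : N → ℂ) n = (θ : N → ℂ) ⟨h * n * (h : G)⁻¹, hN.conj_mem n n.2 h⟩ := by
    intro n
    show (Cfsg.Agent.Blocks.Covering.conjIrr N (h : G) θ : N → ℂ) n = _
    rw [← conjFn_eq_conjIrr]
    rfl
  have hθhP : ∀ g ∈ P, conjFn N (θh : N → ℂ) g = θh := by
    intro g hg
    funext n
    rw [conjFn_apply, hθh, hθh]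
    have h1 := congrFun (hθP _ (hnorm h g hg)) ⟨h * n * (h : G)⁻¹, hN.conj_mem n n.2 h⟩
    rw [conjFn_apply] at h1
    rw [← h1]
    refine congrArg (θ : N → ℂ) (Subtype.ext ?_)
    show (h : G) * (g * n * g⁻¹) * (h : G)⁻¹ =
      (h : G) * g * (h : G)⁻¹ * (h * n * (h : G)⁻¹) * ((h : G) * g * (h : G)⁻¹)⁻¹
    group
  let φh : IrrCharacter (N.subgroupOf H) :=
    Cfsg.Agent.Blocks.Covering.conjIrr (N.subgroupOf H) h φ
  have hφh : ∀ x : N.subgroupOf H, (φh : N.subgroupOf H → ℂ) x =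
      (φ : N.subgroupOf H → ℂ) ⟨h * x * h⁻¹, hnH.conj_mem x x.2 h⟩ := by
    intro x
    show (Cfsg.Agent.Blocks.Covering.conjIrr (N.subgroupOf H) h φ : N.subgroupOf H → ℂ) x = _
    rw [← conjFn_eq_conjIrr]
    rfl
  have hmult : classInner ((θh : N → ℂ) ∘ (iota N H)) (φh : N.subgroupOf H → ℂ) = e := by
    rw [← he, classInner, classInner]
    congr 1
    refine Fintype.sum_equiv (MulAut.conjNormal h : N.subgroupOf H ≃* N.subgroupOf H).toEquiv _ _
      fun x => ?_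
    have e1 : (φh : N.subgroupOf H → ℂ) x = (φ : N.subgroupOf H → ℂ)
        ((MulAut.conjNormal h : N.subgroupOf H ≃* N.subgroupOf H).toEquiv x) := by
      rw [hφh]
      congr 1
    have e2 : ((θh : N → ℂ) ∘ (iota N H)) x = ((θ : N → ℂ) ∘ (iota N H))
        ((MulAut.conjNormal h : N.subgroupOf H ≃* N.subgroupOf H).toEquiv x) := by
      rw [Function.comp_apply, Function.comp_apply, hθh]
      congr 1
    rw [e1, e2]
  have hgood : ¬ MemLocalIdeal M (b (iota N H) θh φh) := fun hh =>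
    hpe ((good_iff hset hM hmult).1 hh)
  constructor
  · intro h1
    have h2 : θh = θ := Subtype.ext (by rw [← conjFn_eq_conjIrr]; exact h1)
    rw [h2] at hgood
    have h3 := unique_beta hset hM (hInv θ hθP) hgood hφ
    rw [conjFn_eq_conjIrr]
    exact congrArg Subtype.val h3
  · intro h1
    have h2 : φh = φ := Subtype.ext (by rw [← conjFn_eq_conjIrr]; exact h1)
    rw [h2] at hgood
    have h3 := unique_chi hset hM (hInv θh hθhP) (hInv θ hθP) hgood hφ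
    rw [conjFn_eq_conjIrr]
    exact congrArg Subtype.val h3

end Cfsg.Agent.H640
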