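import Mathlib
import Cfsg.Agent.H640.Final3
import Cfsg.Agent.H608.PerfInd
import Cfsg.Agent.H644.Trace

/-!
# Fong–Reynolds reduction (helper640), part 2
-/

set_option autoImplicit false
set_option linter.unusedSectionVars false

namespace Cfsg.Agent.H640

open Cfsg
open Cfsg.Agent.Characters.Core
open Cfsg.Agent.H591.Reynolds
open Cfsg.Agent.H592.Transport
open Cfsg.Agent.OddOrderCharacters.NormalInduced (conjFn conjFn_apply)
open Cfsg.Agent.OddOrderCharacters.PF9.CliffGen (resTo resTo_apply down)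

universe u

theorem trSet_symm {A B : Type*} [Group A] [Group B] (e : A ≃* B) (b : Set (IrrCharacter A)) :
    trSet e (trSet e.symm b) = b := by
  ext θ
  rw [mem_trSet, mem_trSet]
  show tr e.symm.symm (tr e.symm θ) ∈ b ↔ θ ∈ b
  rw [MulEquiv.symm_symm, tr_tr_symm]

theorem trSet_trans {A B C : Type*} [Group A] [Group B] [Group C] (e : A ≃* B) (f : B ≃* C)
    (b : Set (IrrCharacter C)) : trSet e (trSet f b) = trSet (e.trans f) b := by
  ext θ
  exact Iff.rfl

/-- The non-invariant case, after choosing the character suitably. -/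
theorem case_sub {G : Type u} [Group G] [Fintype G] (p : ℕ) [Fact p.Prime] {M : Ideal AlgInt}
    (hM : IsPModular p M)
    (B : Set (IrrCharacter G)) (hB : IsPBlock M B) (P : Subgroup G) (hP : IsPGroup p P)
    (hPD : IsDefectGroup p M B P)
    (H : Subgroup G) (hH : H = Subgroup.normalizer (P : Set G)) (c : Set (IrrCharacter H))
    (hcD : IsDefectGroup p M c (P.subgroupOf H)) (hc : IsInducedBlock M H c B)
    (N : Subgroup G) [hN : N.Normal] [Fintype N] (hpN : ¬ p ∣ Nat.card N) (θ : IrrCharacter N)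
    (T : Subgroup G) [Fintype T] (hT : ∀ g, g ∈ T ↔ conjFn N (θ : N → ℂ) g = θ) (hNT : N ≤ T)
    (B' : Set (IrrCharacter T)) (hB' : IsPBlock M B') (hind : IsInducedBlock M T B' B)
    (ψ₀ : IrrCharacter T) (hψ₀ : ψ₀ ∈ B')
    (h₀ : classInner (resTo hNT (ψ₀ : T → ℂ)) (θ : N → ℂ) ≠ 0)
    (hPT : P ≤ T) (hB'D : IsDefectGroup p M B' (P.subgroupOf T))
    (ih : ∀ (X : Subgroup T), X = Subgroup.normalizer ((P.subgroupOf T : Subgroup T) : Set T) →
      ∀ (b' : Set (IrrCharacter X)), IsDefectGroup p M b' ((P.subgroupOf T).subgroupOf X) →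
      IsInducedBlock M X b' B' →
      ∃ (I : IrrCharacter X → IrrCharacter T) (ε : IrrCharacter X → ℤ),
        IsPerfectIsometry p M b' B' I ε) :
    ∃ (I : IrrCharacter H → IrrCharacter G) (ε : IrrCharacter H → ℤ),
      IsPerfectIsometry p M c B I ε := by
  classical
  have hprime := Cfsg.Agent.Blocks.Local.isPrime_of_isPModular hM
  let X₀ : Subgroup G := T ⊓ H
  let X : Subgroup T := X₀.subgroupOf T
  let Y : Subgroup H := X₀.subgroupOf H
  have hmemX : ∀ t : T, t ∈ X ↔ (t : G) ∈ H := fun t =>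
    ⟨fun h => (Subgroup.mem_inf.1 h).2, fun h => Subgroup.mem_inf.2 ⟨t.2, h⟩⟩
  have hmemY : ∀ t : H, t ∈ Y ↔ (t : G) ∈ T := fun t =>
    ⟨fun h => (Subgroup.mem_inf.1 h).1, fun h => Subgroup.mem_inf.2 ⟨h, t.2⟩⟩
  have hX : X = Subgroup.normalizer ((P.subgroupOf T : Subgroup T) : Set T) := by
    ext t
    rw [hmemX, Cfsg.Agent.H648.FirstMain.mem_normalizer_subgroupOf_iff hPT, hH]
  have hP' : IsPGroup p (P.subgroupOf T) := hP.comap_subtype
  obtain ⟨b', ⟨hb', hb'D, hb'ind⟩, -⟩ := first_main p M hM (P.subgroupOf T) hP' X hX B' hB' hB'D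
  obtain ⟨I', ε', hI'⟩ := ih X hX b' hb'D hb'ind
  have hXT : X₀ ≤ T := inf_le_left
  have hXH : X₀ ≤ H := inf_le_right
  let eX : X ≃* X₀ := Cfsg.Agent.H592.Transit.inK hXT
  let eY : Y ≃* X₀ := Cfsg.Agent.H592.Transit.inK hXH
  let b₀ : Set (IrrCharacter X₀) := trSet eX.symm b'
  have hb₀ : IsPBlock M b₀ := isPBlock_trSet eX.symm hb'
  have hb₀' : trSet eX b₀ = b' := trSet_symm eX b'
  let e : Y ≃* X := eY.trans eX.symm
  let b'' : Set (IrrCharacter Y) := trSet e b'
  have hb''₀ : trSet eY b₀ = b'' := rfl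
  have hb'' : IsPBlock M b'' := isPBlock_trSet e hb'
  have hecoe : ∀ y : Y, (((e y : X) : T) : G) = ((y : H) : G) := fun y => rfl
  have hI'' := perf_tr e hI'
  -- `b₀` induces `B`
  have hb₀B : IsInducedBlock M X₀ b₀ B := by
    refine (Cfsg.Agent.H592.Transit.trans_induced hXT hb₀ (C := B') ?_).2 hind
    show IsInducedBlock M X (trSet eX b₀) B'
    rw [hb₀']
    exact hb'ind
  -- the Glauberman correspondent
  have hnH : (N.subgroupOf H).Normal := hN.subgroupOf H
  have : Fintype (N.subgroupOf H) := Fintype.ofFinite _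
  have : Fintype H := Fintype.ofFinite _
  have : Fintype Y := Fintype.ofFinite _
  obtain ⟨φ, k, hk, hpk, hstabφ⟩ := stab_glauberman hM hpN P hP H hH θ
    (fun g hg => (hT g).1 (hPT hg))
  have hCY : N.subgroupOf H ≤ Y := fun x hx => (hmemY x).2 (hNT hx)
  have hY : ∀ h : H, h ∈ Y ↔ conjFn (N.subgroupOf H) (φ : N.subgroupOf H → ℂ) h = φ := by
    intro h
    rw [hmemY, hT, hstabφ]
  have hpC : ¬ p ∣ Nat.card (N.subgroupOf H) := by
    intro h
    apply hpN
    refine h.trans ?_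
    exact Subgroup.card_dvd_of_injective (Cfsg.Agent.H621.BrauerGlauberman.iota N H)
      (fun x y hxy => Subtype.ext (Subtype.ext (congrArg (fun t : N => (t : G)) hxy)))
  -- `b''` covers `φ`
  obtain ⟨ψ'', hψ'', h''⟩ : ∃ ψ'' ∈ b'', classInner (resTo hCY (ψ'' : Y → ℂ))
      (φ : N.subgroupOf H → ℂ) ≠ 0 := by
    have hNTn : (N.subgroupOf T).Normal := hN.subgroupOf T
    have : Fintype (N.subgroupOf T) := Fintype.ofFinite _
    have : Fintype ((N.subgroupOf T).subgroupOf X) := Fintype.ofFinite _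
    have hpNT : ¬ p ∣ Nat.card (N.subgroupOf T) := by
      rw [Nat.card_congr (Subgroup.subgroupOfEquivOfLe hNT).toEquiv]
      exact hpN
    let θT : IrrCharacter (N.subgroupOf T) := ⟨down N T θ, Cfsg.Agent.H591.Cliff.isIrr_down hNT θ.2⟩
    let j : (N.subgroupOf T).subgroupOf X ≃* N.subgroupOf H :=
      { toFun := fun x => ⟨⟨(((x : X) : T) : G), (hmemX _).1 (x : X).2⟩, x.2⟩
        invFun := fun y => ⟨⟨⟨((y : H) : G), hNT y.2⟩, (hmemX _).2 (y : H).2⟩, y.2⟩
        left_inv := fun x => rfl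
        right_inv := fun y => rfl
        map_mul' := fun x y => rfl }
    have hover := Cfsg.Agent.H621.BrauerGlauberman.taskC p M hM (N.subgroupOf T) hpNT
      (P.subgroupOf T) hP' X hX θT (fun g n => by
        have h1 := congrFun ((hT (g : G)).1 g.2) ⟨((n : T) : G), n.2⟩
        rw [conjFn_apply] at h1
        exact h1) (tr j φ) k (by
        rw [← hk, classInner, classInner]
        rw [Nat.card_congr j.toEquiv]
        congr 1
        refine Fintype.sum_equiv j.toEquiv _ _ fun x => ?_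
        rfl) hpk B' b' hb'ind ψ₀ hψ₀ (by
        have h1 : classInner (fun x : N.subgroupOf T => (ψ₀ : T → ℂ) x)
            (θT : N.subgroupOf T → ℂ) = classInner (resTo hNT (ψ₀ : T → ℂ)) (θ : N → ℂ) := by
          rw [classInner, classInner,
            Nat.card_congr (Subgroup.subgroupOfEquivOfLe hNT).toEquiv]
          congr 1
          refine Fintype.sum_equiv (Subgroup.subgroupOfEquivOfLe hNT).toEquiv _ _ fun x => ?_
          rfl
        rw [h1]
        exact h₀)
    obtain ⟨η, hη⟩ := Cfsg.Agent.Blocks.Basic.isPBlock_nonempty hb'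
    refine ⟨tr e η, tr_mem_trSet.2 hη, ?_⟩
    have h1 : classInner (resTo hCY (tr e η : Y → ℂ)) (φ : N.subgroupOf H → ℂ) =
        classInner (fun x : (N.subgroupOf T).subgroupOf X => (η : X → ℂ) x)
          (tr j φ : (N.subgroupOf T).subgroupOf X → ℂ) := by
      rw [classInner, classInner, Nat.card_congr j.toEquiv]
      congr 1
      symm
      refine Fintype.sum_equiv j.toEquiv _ _ fun x => ?_
      rfl
    rw [h1]
    exact hover η hη
  obtain ⟨c₁, hc₁ind, hc₁D, F₁, hF₁, hF₁'⟩ := fr p hM hpC φ hY hCY hb'' hψ'' h''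
  obtain ⟨B₁, hB₁ind, -, F, hF, hF'⟩ := fr p hM hpN θ hT hNT hB' hψ₀ h₀
  have hBB : B₁ = B := Cfsg.Agent.H592.Transit.induced_unique hB₁ind hind
  subst hBB
  -- `c₁` induces `B`
  have hc₁B : IsInducedBlock M H c₁ B₁ :=
    (Cfsg.Agent.H592.Transit.trans_induced hXH hb₀ (C := c₁) hc₁ind).1 hb₀B
  -- the defect group of `c₁`
  have hc₁D' : IsDefectGroup p M c₁ (P.subgroupOf H) := by
    have h1 := hc₁D _ (isDefectGroup_trSet e hb'D)
    have h2 : (((P.subgroupOf T).subgroupOf X).comap e.toMonoidHom).map Y.subtype =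
        P.subgroupOf H := by
      ext h
      constructor
      · rintro ⟨y, hy, rfl⟩
        exact hy
      · intro hh
        refine ⟨⟨h, (hmemY h).2 (hPT hh)⟩, ?_, rfl⟩
        exact hh
    rw [h2] at h1
    exact h1
  have hcc : c = c₁ := by
    obtain ⟨c₂, -, huniq⟩ := first_main p M hM P hP H hH B₁ hB hPD
    rw [huniq c ⟨hc.1, hcD, hc⟩, huniq c₁ ⟨hc₁B.1, hc₁D', hc₁B⟩]
  subst hcc
  obtain ⟨I, ε, hI, -⟩ := Cfsg.Agent.H608.PerfInd.exists_isPerfectIsometry p M hM T Y B' b'' _ _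
    hI'' B₁ F hF hF' c F₁ hF₁ hF₁'
  exact ⟨I, ε, hI⟩

end Cfsg.Agent.H640
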