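import Mathlib
import Cfsg.Agent.H640.Final4

/-!
# Perfect isometries for `p`-solvable groups with abelian defect group: the induction (helper640)
-/

set_option autoImplicit false
set_option linter.unusedSectionVars false

namespace Cfsg.Agent.H640

open Cfsg
open Cfsg.Agent.Characters.Core
open Cfsg.Agent.H591.Reynolds
open Cfsg.Agent.H592.Transport
open Cfsg.Agent.OddOrderCharacters.NormalInduced (conjFn conjFn_apply)
open Cfsg.Agent.OddOrderCharacters.PF9.CliffGen (resTo resTo_apply down inertia mem_inertia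
  le_inertia)

universe u

/-- conjugation between the normalizers of conjugate subgroups -/
def nConj {G : Type u} [Group G] {P P' : Subgroup G} (x : G)
    (hx : P'.map (MulAut.conj x).toMonoidHom = P) {H H' : Subgroup G}
    (hH : H = Subgroup.normalizer (P : Set G)) (hH' : H' = Subgroup.normalizer (P' : Set G)) :
    H' ≃* H where
  toFun y := ⟨x * y * x⁻¹, by
    have hy : (y : G) ∈ Subgroup.normalizer (P' : Set G) := hH' ▸ y.2
    rw [hH, ← hx, Subgroup.mem_normalizer_iff]
    intro g
    have h1 : ∀ g : G, g ∈ P'.map (MulAut.conj x).toMonoidHom ↔ x⁻¹ * g * x ∈ P' := by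
      intro g
      constructor
      · rintro ⟨z, hz, rfl⟩
        show x⁻¹ * (x * z * x⁻¹) * x ∈ P'
        have : x⁻¹ * (x * z * x⁻¹) * x = z := by group
        rw [this]
        exact hz
      · intro h
        refine ⟨_, h, ?_⟩
        show x * (x⁻¹ * g * x) * x⁻¹ = g
        group
    show g ∈ P'.map (MulAut.conj x).toMonoidHom ↔
      x * y * x⁻¹ * g * (x * y * x⁻¹)⁻¹ ∈ P'.map (MulAut.conj x).toMonoidHom
    rw [h1, h1, Subgroup.mem_normalizer_iff.1 hy]
    have h2 : x⁻¹ * (x * y * x⁻¹ * g * (x * y * x⁻¹)⁻¹) * x = y * (x⁻¹ * g * x) * (y : G)⁻¹ := by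
      group
    rw [h2]⟩
  invFun y := ⟨x⁻¹ * y * x, by
    have hy : (y : G) ∈ Subgroup.normalizer (P : Set G) := hH ▸ y.2
    rw [hH', Subgroup.mem_normalizer_iff]
    intro g
    have h1 : ∀ g : G, g ∈ P' ↔ x * g * x⁻¹ ∈ P := by
      intro g
      rw [← hx]
      constructor
      · intro h
        exact ⟨g, h, rfl⟩
      · rintro ⟨z, hz, hz'⟩
        have hz'' : x * z * x⁻¹ = x * g * x⁻¹ := hz'
        have h3 : z = g := mul_left_cancel (mul_right_cancel hz'')
        rw [← h3]
        exact hz
    rw [h1, h1, Subgroup.mem_normalizer_iff.1 hy]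
    have h2 : x * (x⁻¹ * y * x * g * (x⁻¹ * y * x)⁻¹) * x⁻¹ = y * (x * g * x⁻¹) * (y : G)⁻¹ := by
      group
    rw [h2]⟩
  left_inv y := Subtype.ext (by
    show x⁻¹ * (x * y * x⁻¹) * x = y
    group)
  right_inv y := Subtype.ext (by
    show x * (x⁻¹ * y * x) * x⁻¹ = y
    group)
  map_mul' y z := Subtype.ext (by
    show x * (y * z) * x⁻¹ = x * y * x⁻¹ * (x * z * x⁻¹)
    group)

theorem nConj_coe {G : Type u} [Group G] {P P' : Subgroup G} (x : G)
    (hx : P'.map (MulAut.conj x).toMonoidHom = P) {H H' : Subgroup G}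
    (hH : H = Subgroup.normalizer (P : Set G)) (hH' : H' = Subgroup.normalizer (P' : Set G))
    (y : H') : ((nConj x hx hH hH' y : H) : G) = x * y * x⁻¹ := rfl

/-- **The theorem, with a named normalizer.** -/
theorem main_aux (p : ℕ) [hp : Fact p.Prime] (M : Ideal AlgInt) (hM : IsPModular p M) (k : ℕ) :
    ∀ (G : Type u) [Group G] [Fintype G] (_ : Nat.card G ≤ k) (_ : IsPSolvable p G)
      (B : Set (IrrCharacter G)) (_ : IsPBlock M B) (P : Subgroup G) (_ : IsDefectGroup p M B P)
      (_ : ∀ x ∈ P, ∀ y ∈ P, x * y = y * x) (H : Subgroup G)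
      (_ : H = Subgroup.normalizer (P : Set G)) (c : Set (IrrCharacter H))
      (_ : IsDefectGroup p M c (P.subgroupOf H)) (_ : IsInducedBlock M H c B),
      ∃ (I : IrrCharacter H → IrrCharacter G) (ε : IrrCharacter H → ℤ),
        IsPerfectIsometry p M c B I ε := by
  classical
  have hprime := Cfsg.Agent.Blocks.Local.isPrime_of_isPModular hM
  induction k with
  | zero =>
    intro G _ _ hk
    exact absurd hk (by have := Nat.card_pos (α := G); omega)
  | succ k ih =>
    intro G _ _ hk hsolv B hB P hPD hPab H hH c hcD hc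
    let N : Subgroup G := pPrimeCore p G
    have hN : N.Normal := Cfsg.Agent.Lib.Cores.pPrimeCore_normal p
    have : Fintype N := Fintype.ofFinite _
    have hpN : ¬ p ∣ Nat.card N := ndvd_pPrimeCore p
    obtain ⟨χ, hχ⟩ := Cfsg.Agent.Blocks.Basic.isPBlock_nonempty hB
    obtain ⟨θ, hθ⟩ : ∃ θ : IrrCharacter N,
        classInner (fun n : N => (χ : G → ℂ) n) (θ : N → ℂ) ≠ 0 := by
      have h1 : IsCharacter N (fun n : N => (χ : G → ℂ) n) :=
        isCharacter_comp N.subtype (isIrr_isCharacter χ.2)
      have h2 : (fun n : N => (χ : G → ℂ) n) ≠ 0 := by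
        intro h
        exact isIrr_apply_one_ne_zero χ.2 (congrFun h 1)
      obtain ⟨θ, hθ, h3⟩ :=
        Cfsg.Agent.OddOrderCharacters.PF4Type.exists_irr_constituent h1 h2
      exact ⟨⟨θ, hθ⟩, h3⟩
    let T : Subgroup G := inertia N (θ : N → ℂ)
    have : Fintype T := Fintype.ofFinite _
    have hT : ∀ g, g ∈ T ↔ conjFn N (θ : N → ℂ) g = θ := fun g => Iff.rfl
    have hNT : N ≤ T := le_inertia (isIrr_isClassFunction θ.2)
    by_cases hTtop : T = ⊤
    · refine case_inv p M hM hsolv B hB P hPD hPab H hH c hc N rfl θ χ hχ hθ fun g n => ?_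
      have h1 : conjFn N (θ : N → ℂ) g = θ := (hT g).1 (hTtop ▸ Subgroup.mem_top g)
      exact congrFun h1 n
    · obtain ⟨B', hB', hind, ψ₀, hψ₀, h₀⟩ := exists_fr p hM hpN θ hT hNT hB hχ hθ
      obtain ⟨D', hD'⟩ := Cfsg.Agent.H644.exists_isDefectGroup hM hB'
      obtain ⟨B₁, hB₁ind, hB₁D, -⟩ := fr p hM hpN θ hT hNT hB' hψ₀ h₀
      have hBB : B₁ = B := Cfsg.Agent.H592.Transit.induced_unique hB₁ind hind
      subst hBB
      have hP'D : IsDefectGroup p M B₁ (D'.map T.subtype) := hB₁D D' hD'
      obtain ⟨x, hx⟩ := Cfsg.Agent.H644.exists_conj_of_isDefectGroup hM hB hP'D hPD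
      let P' : Subgroup G := D'.map T.subtype
      have hP'T : P' ≤ T := Subgroup.map_subtype_le _
      have hP'D' : P'.subgroupOf T = D' :=
        Subgroup.comap_map_eq_self_of_injective T.subtype_injective D'
      have hP' : IsPGroup p P' := Cfsg.Agent.Blocks.Basic.isPGroup_of_isDefectGroup hP'D
      have hP'ab : ∀ y ∈ P', ∀ z ∈ P', y * z = z * y := by
        intro y hy z hz
        have h1 : x * y * x⁻¹ ∈ P := hx ▸ ⟨y, hy, rfl⟩
        have h2 : x * z * x⁻¹ ∈ P := hx ▸ ⟨z, hz, rfl⟩
        have h3 := hPab _ h1 _ h2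
        have h4 : x * (y * z) * x⁻¹ = x * (z * y) * x⁻¹ := by
          calc x * (y * z) * x⁻¹ = (x * y * x⁻¹) * (x * z * x⁻¹) := by group
            _ = (x * z * x⁻¹) * (x * y * x⁻¹) := h3
            _ = _ := by group
        exact mul_left_cancel (mul_right_cancel h4)
      let H' : Subgroup G := Subgroup.normalizer (P' : Set G)
      let e : H' ≃* H := nConj x hx hH rfl
      have hecoe : ∀ y : H', ((e y : H) : G) = x * y * x⁻¹ := fun y => rfl
      let c' : Set (IrrCharacter H') := trSet e c
      have hc'ind : IsInducedBlock M H' c' B₁ :=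
        isInduced_tr e (fun y => isConj_iff.2 ⟨x, rfl⟩) hc
      have hc'D : IsDefectGroup p M c' (P'.subgroupOf H') := by
        have h1 := isDefectGroup_trSet e hcD
        have h2 : (P.subgroupOf H).comap e.toMonoidHom = P'.subgroupOf H' := by
          ext y
          show x * (y : G) * x⁻¹ ∈ P ↔ (y : G) ∈ P'
          rw [← hx]
          constructor
          · rintro ⟨z, hz, hz'⟩
            have hz'' : x * z * x⁻¹ = x * y * x⁻¹ := hz'
            have h3 : z = y := mul_left_cancel (mul_right_cancel hz'')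
            rw [← h3]
            exact hz
          · intro h
            exact ⟨y, h, rfl⟩
        rw [h2] at h1
        exact h1
      have hcard : Nat.card T ≤ k := by
        have h1 : Nat.card T < Nat.card G := by
          rcases lt_or_eq_of_le (Nat.card_le_card_of_injective _ T.subtype_injective) with h | h
          · exact h
          · exact absurd (Subgroup.eq_top_of_card_eq T h) hTtop
        omega
      have hsolvT : IsPSolvable p T :=
        Cfsg.Agent.Lib.PSolvable.IsPSolvable_of_injective p hsolv T.subtype T.subtype_injective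
      obtain ⟨I', ε', hI'⟩ := case_sub p hM B₁ hB P' hP' hP'D H' rfl c' hc'D hc'ind N hpN θ T hT hNT
        B' hB' hind ψ₀ hψ₀ h₀ hP'T (by rw [hP'D']; exact hD') (fun X hX b' hb'D hb'ind =>
          ih T hcard hsolvT B' hB' (P'.subgroupOf T) (by rw [hP'D']; exact hD')
            (fun y hy z hz => Subtype.ext (hP'ab _ hy _ hz)) X hX b' hb'D hb'ind)
      have h5 := perf_tr e.symm hI'
      rw [show trSet e.symm c' = c from trSet_symm e.symm c] at h5
      exact ⟨_, _, h5⟩

end Cfsg.Agent.H640
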